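import Cfsg.Agent.Lib.Chev.Gen2Cl
import Cfsg.Agent.Lib.Chev.Data

/-!
The tabulated Chevalley groups over finite fields are generated by two elements.
-/

namespace Cfsg.Lib.Chev

open RootSys PreSys Cfsg.Lib.BN List Cfsg.Lie

variable {n : ℕ} {Φ : Type} {R : RootSys (Fin n) Φ} {F : Type*} [Field F] {G : Type*} [Group G]

theorem IsCartan.sref_mem_of_chk {A : List (List ℤ)} (hA : IsCartan R A) {M : CoxeterMatrix (Fin n)}
    (hM : ∃ cs : CoxeterSystem M R.W, ∀ i, cs.simple i = R.sW i) (g : List (List (Fin n)))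
    (u : List (List (ℕ × Bool))) (h : ∀ i : Fin n, eqChk A (substW g (u.getD i [])) [i] = true)
    {K : Subgroup (Equiv.Perm Φ)} (hK : ∀ l ∈ g, wp R.sref l ∈ K) (i : Fin n) : R.sref i ∈ K := by
  obtain ⟨φ, -, -, h1⟩ := exists_coxHom hM
  rw [← h1, ← Subgroup.mem_comap, hA.eq_top_of_chk hM g u h (K := K.comap φ) fun l hl => by
    rw [Subgroup.mem_comap, map_wp, funext h1]; exact hK l hl]
  trivial

namespace ChevSys

variable {C : ChevSys R F G} [Finite Φ] {T : ChevTab R} (hT : T.StrongComm C.x) [Finite F]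
  (htop : C.grp = ⊤)
include hT htop

theorem twoGen_E (hR : R.NoG2) (hc : R.Conn) (hA : ∀ i j, i ≠ j → R.A i j = 0 ∨ R.A i j = -1) {i j b : Fin n}
    (h1 : i.val + 1 = j) (h2 : R.A i j = -1) (h3 : R.A j i = -1) (h4 : ∀ k, j < k → R.A k i = 0)
    (h5 : ∀ k < i, R.A k j = 0) (h6 : R.A j b = 0) (H : ∀ K : Subgroup (Equiv.Perm Φ),
      R.cox 0 ∈ K → R.sref i ∈ K → R.sref j ∈ K → ∀ k, R.sref k ∈ K) : TwoGen G := by
  have e1 := cox_simple h1 h2 h3 h4 h5
  have e2 : ∀ K, R.cox 0 ∈ C.WK K → C.RS K (R.simple j) → C.grp ≤ K := fun K hK hj => by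
    have h7 := H _ hK (RS.sref_mem hT hR hK (RS.of_map (e1 ▸ hj) hK)) (hj.sref_mem hT hR hK)
    refine grp_le_of_rs hT hR hK j (fun k _ => by_contra fun hk => ?_) hj
    obtain ⟨a, ha, c, h8, h9⟩ := hc {k | C.RS K (R.simple k)} ⟨j, hj⟩ ⟨k, hk⟩
    have h10 : a ≠ c := by rintro rfl; exact h8 ha
    exact h8 (RS.bond ha ((hA _ _ h10).resolve_left h9) ((hA _ _ h10.symm).resolve_left (by
      rwa [← pair_simple_simple, pair_eq_zero_comm, pair_simple_simple])) (h7 _) (h7 _))
  by_cases h : ∃ x : F, x ≠ 0 ∧ x ≠ 1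
  · obtain ⟨ξ, hξ⟩ := exists_big h
    refine twoGen_two htop (cox_mem 0) (C.h_mem_H (R.sref i (R.simple j)) ξ) (C.acts_h _ _)
      (a := R.simple j) (b := R.simple j) (hξ _ ?_) (hξ _ ?_).1 (.inl rfl) (fun K h1 h2 _ =>
        e2 K h1 h2) (.inl rfl)
    · simp [← refl_simple, pair_refl_left, pair_refl, pair_simple_simple, h2, h3]
    · rw [← e1, inv_apply, e1]
      simp [← refl_simple, pair_refl_left, refl_self, pair_simple_simple, h3]
  · have : j ≠ b := by rintro rfl; simp [A_diag] at h6
    exact twoGen_of_two htop (cox_mem 0) (by simpa [or_iff_not_imp_left] using h)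
      (C.commute_of_not_between (simple_ne_neg _ _) (not_between_of_orth h6) 1 1)
      (C.commute_of_not_between (R.neg_injective.ne (R.simple_injective.ne this.symm))
        (not_between_simple_neg this) 1 1) fun K h1 h2 _ => e2 K h1 h2

end ChevSys

theorem twoGen_F4 {Φ : Type} {R : RootSys (Fin 4) Φ} {C : ChevSys R F G} [Finite Φ] {T : ChevTab R}
    (hT : T.StrongComm C.x) [Finite F] (htop : C.grp = ⊤) (hA : IsCartan R cartanF4)
    (hR : R.NoG2) : TwoGen G := by
  have hA : R.A = ![![2, -1, 0, 0], ![-1, 2, -2, 0], ![0, -1, 2, -1], ![0, 0, -1, 2]] :=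
    hA.A_eq.trans (by decide)
  have e1 : R.cox 0 (R.simple 0) = R.simple 1 := by
    refine cox_simple rfl ?_ ?_ ?_ ?_ <;> rw [hA] <;> decide
  have e2 : R.cox 0 (R.simple 2) = R.simple 3 := by
    refine cox_simple rfl ?_ ?_ ?_ ?_ <;> rw [hA] <;> decide
  have e3 : R.cox 0 = R.sref 0 * (R.sref 1 * (R.sref 2 * R.sref 3)) := by simp [cox, finRange_succ]
  have e4 : ∀ K, R.cox 0 ∈ C.WK K → C.RS K (R.simple 0) → C.RS K (R.simple 2) → C.grp ≤ K :=
    fun K hc h h' => ChevSys.grp_le_of_rs hT hR hc 0 (fun i _ => by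
      fin_cases i
      exacts [h, e1 ▸ h.map hc, h', e2 ▸ h'.map hc]) h
  have e5 := C.commute_of_not_between (R.neg_injective.ne (R.simple_injective.ne
    (by decide : (2 : Fin 4) ≠ 0))) (not_between_simple_neg (by decide))
  by_cases h : ∃ x : F, x ≠ 0 ∧ x ≠ 1
  · obtain ⟨ξ, hξ⟩ := exists_big h
    refine ChevSys.twoGen_two htop (cox_mem 0) (C.h_mem_H (R.sref 1 (R.simple 2)) ξ) (C.acts_h _ _)
      (hξ _ ?_) (hξ _ ?_).1 (.inr ⟨?_, hξ _ ?_, (hξ _ ?_).1, e5⟩)
      (fun K hc h h' => e4 K hc h (by simpa using (h' rfl).neg' hT hR hc)) (.inr rfl)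
    all_goals try simp only [e3, mul_inv_rev, sref_inv]
    all_goals simp [← refl_simple, pair_refl_left, pair_refl, pair_simple_simple, hA]
  refine ChevSys.twoGen_of_two htop (cox_mem 0) (by simpa [or_iff_not_imp_left] using h)
    (C.commute_of_not_between (simple_ne_neg _ _) (not_between_of_orth (by simp [hA])) 1 1) (e5 1 1)
    fun K hc h1 h2 => e4 K hc h1 ?_
  have h3 := e1 ▸ h1.map hc
  have h4 := hc
  rw [e3, mul_mem_cancel_left (h1.sref_mem hT hR hc), mul_mem_cancel_left (h3.sref_mem hT hR hc)]
    at h4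
  refine h3.of_two hT hR (by simpa [or_iff_not_imp_left] using h)
    (R.refl_simple _ ▸ h3.sref_mem hT hR hc) (by simp [pair_simple_simple, hA])
    (by simp [pair_simple_simple, hA]) (fun _ => ?_) h2
  convert h3.map h4 using 1
  rw [Equiv.Perm.mul_apply, refl_simple, ← wp_singleton R.sref 3,
    wp_of_orth (by simp [pair_simple_simple, hA])]

theorem twoGen_G2 {Φ : Type} {R : RootSys (Fin 2) Φ} {C : ChevSys R F G} [Finite F]
    (htop : C.grp = ⊤) (hA : IsCartan R cartanG2) (h : ∃ x : F, x ≠ 0 ∧ x ≠ 1) : TwoGen G := by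
  have hA : R.A = ![![2, -3], ![-1, 2]] := hA.A_eq.trans (by decide)
  obtain ⟨ξ, hξ⟩ := exists_big h
  have e : ∀ i, ((R.sref 1 * R.sref 0) ^ 3) (R.simple i) = R.neg (R.simple i) := fun i => by
    refine R.α_inj (funext fun j => ?_)
    fin_cases i <;> fin_cases j <;>
      simp [pow_succ, α_sref, sL_apply, ca_apply, R.α_neg, R.α_simple, hA]
  refine ChevSys.twoGen_two htop (mul_mem (R.sref_mem_W 1) (R.sref_mem_W 0))
    (C.h_mem_H (R.sref 1 (R.sref 0 (R.simple 1))) ξ) (C.acts_h _ _) (hξ _ ?_) (hξ _ ?_).1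
    (.inr ⟨?_, hξ _ ?_, (hξ _ ?_).1, C.commute_of_not_between (R.neg_injective.ne
      (R.simple_injective.ne (by decide : (0 : Fin 2) ≠ 1))) (not_between_simple_neg (by decide))⟩)
    (fun K hc h h' => ?_) (.inr rfl)
  on_goal 6 =>
    have h1 : ∀ i, C.RS K (R.simple i) := fun i => by
      fin_cases i
      exacts [ChevSys.RS.of_map (e 0 ▸ h' rfl) (pow_mem hc 3), h]
    exact C.grp_le_of_simple h1 fun i => e i ▸ (h1 i).map (pow_mem hc 3)
  all_goals try simp only [mul_inv_rev, sref_inv]
  all_goals simp [← refl_simple, pair_refl_left, pair_refl, pair_simple_simple, hA]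

theorem twoGen_chev [Finite F] {D : ChevalleyDatum} (hD : D ∈ types)
    (hF : D ∈ [chevB2, chevG2] → ∃ x : F, x ≠ 0 ∧ x ≠ 1) : TwoGen (D.group F) := by
  simp only [List.mem_cons, List.not_mem_nil, or_false] at hD
  rcases hD with rfl | rfl | rfl | rfl | rfl | rfl | rfl
  · exact twoGen_G2 (checkedG2.gsys_grp F) (isCartanG2 _) (hF (by simp))
  · exact ChevSys.twoGen_C (n := 2) (checkedB2.gsys_strongComm F) (noG2_of_simple (by
      decide +kernel)) (checkedB2.gsys_grp F) le_rfl ((isCartanB2 _).A_eq.trans (funext₂ fun i j =>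
        .trans (by revert i j; decide +kernel) (A_C 2 i j).symm)) fun _ => hF (by simp)
  · exact ChevSys.twoGen_D (n := 4) (checkedD4.gsys_strongComm F) (noG2_of_simple (by
      decide +kernel)) (checkedD4.gsys_grp F) (by decide) le_rfl ((isCartanD4 _).A_eq.trans
        (funext₂ fun i j => .trans (by revert i j; decide +kernel) (A_D _ i j).symm))
  · exact twoGen_F4 (checkedF4.gsys_strongComm F) (checkedF4.gsys_grp F) (isCartanF4 _)
      (noG2_of_simple (by decide +kernel))
  · refine ChevSys.twoGen_E (n := 6) (checkedE6.gsys_strongComm F) (checkedE6.gsys_grp F)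
      (noG2_of_simple (by decide +kernel)) (connE6 _) ?_ (i := 3) (j := 4) (b := 0) rfl ?_ ?_ ?_ ?_ ?_
      fun K h1 h2 h3 => IsCartan.sref_mem_of_chk (n := 6) (isCartanE6 _) (coxeterE6_sys _)
        [finRange 6, [3]]
        [[(0, false), (0, false), (0, false), (0, false), (0, false), (1, true), (0, true), (0,
         true), (0, true), (0, true), (0, true)], [(1, true), (0, false), (0, false), (0, false),
         (1, true), (0, true), (0, true), (0, true), (1, true)], [(0, false), (0, false), (0,
         false), (0, false), (1, true), (0, true), (0, true), (0, true), (0, true)], [(1, true)],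
         [(0, true), (1, true), (0, false)], [(0, true), (0, true), (1, true), (0, false), (0,
         false)]]
        (by decide +kernel) (by simpa using ⟨h1, h2⟩)
    all_goals rw [IsCartan.A_eq (n := 6) (isCartanE6 _)]; decide +kernel
  · refine ChevSys.twoGen_E (n := 7) (checkedE7.gsys_strongComm F) (checkedE7.gsys_grp F)
      (noG2_of_simple (by decide +kernel)) (connE7 _) ?_ (i := 3) (j := 4) (b := 0) rfl ?_ ?_ ?_ ?_ ?_
      fun K h1 h2 h3 => IsCartan.sref_mem_of_chk (n := 7) (isCartanE7 _) (coxeterE7_sys _)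
        [finRange 7, [3]]
        [[(0, false), (1, true), (0, false), (0, false), (0, false), (0, false), (1, true), (0,
         true), (0, true), (0, true), (0, true), (1, true), (0, true)], [(1, true), (0, true), (1,
         true), (0, false), (0, false), (0, false), (0, false), (1, true), (0, true), (0, true),
         (0, true), (0, true), (1, true), (0, false), (1, true)], [(1, true), (0, false), (0,
         false), (0, false), (0, false), (1, true), (0, true), (0, true), (0, true), (0, true),
         (1, true)], [(1, true)], [(0, true), (1, true), (0, false)], [(0, true), (0, true), (1,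
         true), (0, false), (0, false)], [(0, true), (0, true), (0, true), (1, true), (0, false),
         (0, false), (0, false)]]
        (by decide +kernel) (by simpa using ⟨h1, h2⟩)
    all_goals rw [IsCartan.A_eq (n := 7) (isCartanE7 _)]; decide +kernel
  · refine ChevSys.twoGen_E (n := 8) (checkedE8.gsys_strongComm F) (checkedE8.gsys_grp F)
      (noG2_of_simple (by decide +kernel)) (connE8 _) ?_ (i := 3) (j := 4) (b := 0) rfl ?_ ?_ ?_ ?_ ?_
      fun K h1 h2 h3 => IsCartan.sref_mem_of_chk (n := 8) (isCartanE8 _) (coxeterE8_sys _)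
        [finRange 8, [4]]
        [[(0, false), (0, false), (1, true), (0, true), (0, true), (0, true), (0, true), (0,
         true), (0, true), (1, true), (0, false), (0, false), (0, false), (0, false), (0, false),
         (0, false), (1, true), (0, true), (0, true)], [(0, false), (1, true), (0, true), (1,
         true), (0, true), (0, true), (0, true), (0, true), (0, true), (0, true), (1, true), (0,
         false), (0, false), (0, false), (0, false), (0, false), (0, false), (1, true), (0,
         false), (1, true), (0, true)], [(0, false), (1, true), (0, true), (0, true), (0, true),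
         (0, true), (0, true), (0, true), (1, true), (0, false), (0, false), (0, false), (0,
         false), (0, false), (0, false), (1, true), (0, true)], [(0, false), (1, true), (0,
         true)], [(1, true)], [(0, true), (1, true), (0, false)], [(0, true), (0, true), (1,
         true), (0, false), (0, false)], [(0, true), (0, true), (0, true), (1, true), (0, false),
         (0, false), (0, false)]]
        (by decide +kernel) (by simpa using ⟨h1, h3⟩)
    all_goals rw [IsCartan.A_eq (n := 8) (isCartanE8 _)]; decide +kernel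

end Cfsg.Lib.Chev
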