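import Cfsg.Agent.Lib.Chev.Aut
import Cfsg.Agent.Lib.Chev.RootComb
import Cfsg.Prelude.Def_ChevAutomorphisms

/-!
Generation by the monomial subgroup and fundamental root subgroups.
-/

namespace Cfsg.Lib.Chev

open RootSys PreSys Cfsg.Lie

variable {ι Φ : Type} [Fintype ι] [DecidableEq ι] {R : RootSys ι Φ} {F : Type*} [Field F]
  {G : Type*} [Group G]

namespace ChevSys

variable {C : ChevSys R F G} {K : Subgroup G} (hN : ∀ i, C.n (R.simple i) 1 ∈ K)
include hN

theorem sref_mem {r : Φ} (h : ∀ t, C.x r t ∈ K) (i : ι) (t : F) : C.x (R.sref i r) t ∈ K := by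
  have := (C.acts_n_simple i).conj r (((C.η i r)⁻¹ : Fˣ) * t)
  rw [Units.mul_inv_cancel_left] at this
  exact this ▸ mul_mem (mul_mem (hN i) (h _)) (inv_mem (hN i))

theorem grp_le_of_n (h : ∀ i t, C.x (R.simple i) t ∈ K) : C.grp ≤ K :=
  C.grp_le_of_simple h fun i t => R.sref_simple i ▸ sref_mem hN (h i) i t

theorem bond_mem {i j : ι} (h1 : R.A i j = -1) (h2 : R.A j i = -1)
    (h : ∀ t, C.x (R.simple i) t ∈ K) (t : F) : C.x (R.simple j) t ∈ K := by
  have e1 : R.α (R.sref j (R.simple i)) =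
      (1 : ℤ) • R.α (R.simple i) + (1 : ℤ) • R.α (R.simple j) := by
    simp [α_sref', pair_simple_simple, h2]
  have : R.sref i (R.sref j (R.simple i)) = R.simple j := R.α_inj (by
    rw [α_sref', pair_of_comb e1, e1, pair_self, pair_simple_simple, h1]
    module)
  exact this ▸ sref_mem hN (sref_mem hN h j) i t

theorem long_mem {T : ChevTab R} (hT : T.StrongComm C.x) {i j : ι} {m : ℕ} (h1 : R.A i j = -m)
    (h2 : R.A j i = -1) (hm : m = 2 ∨ m = 3) (hF : (m : F) ≠ 0)
    (h : ∀ t, C.x (R.simple i) t ∈ K) (t : F) : C.x (R.simple j) t ∈ K := by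
  have hij : i ≠ j := by rintro rfl; rw [A_diag] at h2; omega
  have e1 : R.α (R.sref j (R.simple i)) = (1 : ℤ) • R.α (R.simple i) + (1 : ℤ) • R.α (R.simple j) := by
    simp [α_sref', pair_simple_simple, h2]
  obtain ⟨s, hs, e⟩ : ∃ s, (∀ t, C.x s t ∈ K) ∧
      R.α s = ((m : ℤ) - 1) • R.α (R.simple i) + (1 : ℤ) • R.α (R.simple j) := by
    rcases hm with rfl | rfl
    · exact ⟨_, sref_mem hN h j, by simpa using e1⟩
    · refine ⟨_, sref_mem hN (sref_mem hN h j) i, ?_⟩
      rw [α_sref', pair_of_comb e1, e1, pair_self, pair_simple_simple, h1]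
      module
  have p1 : R.pair (R.simple i) s = m - 2 := by
    rw [pair_of_comb e, pair_self, pair_simple_simple, h1]; ring
  have n1 : s ≠ R.simple i := ne_of_pair (by rw [p1]; omega)
  have n2 : s ≠ R.neg (R.simple i) := ne_neg_of_pair (by rw [p1]; omega)
  have e2 : R.α (R.sref i (R.simple j)) = 1 • R.α (R.simple i) + R.α s := by
    rw [α_sref', e, pair_simple_simple, h1]; module
  have hM := T.M_abs _ _ _ (R.simple j) 1 (m - 1) n1 n2 one_pos e2 (by
    rw [e, ← natCast_zsmul, Nat.cast_sub (by omega)]; module) fun m' e' =>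
    α_ne_sub_simple hij m' (by rw [e', e, Nat.sub_add_cancel (by omega)]; module)
  rw [Nat.choose_one_right, Nat.sub_add_cancel (by omega)] at hM
  have hM' : (T.M (R.simple i) s 1 : F) ≠ 0 := by
    rcases Int.natAbs_eq (T.M (R.simple i) s 1) with e | e <;> rw [e, hM] <;> simpa using hF
  rw [← R.sref_sref i (R.simple j)]
  refine sref_mem hN (fun t => ?_) i t
  have := hT.mem_of_terms (K := K) n1 n2 (T.mem_terms_of_cr one_pos e2) (t := -1)
    (u := (T.M (R.simple i) s 1 : F)⁻¹ * t)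
    (mul_mem (mul_mem (mul_mem (inv_mem (hs _)) (inv_mem (h _))) (hs _)) (h _)) fun k hk hk' => by
      obtain ⟨a, b, ha, hb, e3⟩ := hk.exists_int
      have h3 := pair_of_comb e3 (R.simple i)
      have h4 := pair_of_comb e3 s
      have h5 := (abs_le.1 (abs_pair_le (R := R) (r := R.simple i) (s := k))).2
      have h6 := (abs_le.1 (abs_pair_le (R := R) (r := s) (s := k))).2
      have h7 : 0 ≤ R.pair s (R.simple i) := not_lt.1 (mt R.pair_neg_comm.1 (by rw [p1]; omega))
      rw [pair_self, p1] at h3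
      rw [pair_self] at h4
      have h8 := mul_nonneg hb.le (show (0 : ℤ) ≤ m - 2 by omega)
      obtain rfl : a = 1 := by omega
      obtain rfl : b = 1 := by omega
      exact absurd (R.α_inj (by rw [e3, e2, one_smul, one_smul, one_smul])) hk'
  simpa [hM'] using this

end ChevSys

theorem Checked.group_le {D : ChevalleyDatum} {c : Cert} (h : Checked D c) {K : Subgroup (GL D.Idx F)}
    (hN : D.monomialSubgroup F ≤ K) {I : List ℕ} (hI : ∀ i ∈ I, D.rootSubgroup F (D.simple i) ≤ K)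
    {m : ℕ} (hm : m = 1 ∨ (m = 2 ∨ m = 3) ∧ (m : F) ≠ 0)
    (H : ∀ J : Finset (Fin D.rank), (∀ i, i.val ∈ I → i ∈ J) → (∀ i ∈ J, ∀ j,
      h.R.A j i = -1 → h.R.A i j = -1 ∨ h.R.A i j = -m → j ∈ J) → J = Finset.univ) :
    D.group F ≤ K := by
  classical
  have h1 : ∀ i, (h.sys F).n (h.R.simple i) 1 ∈ K := fun i =>
    hN (h.monomialSubgroup_eq F ▸ n_mem_N _ _ _)
  rw [h.group_eq]
  refine ChevSys.grp_le_of_n h1 fun i => ?_
  refine (Finset.mem_filter.1 ((H {i | ∀ t, (h.sys F).x (h.R.simple i) t ∈ K} (fun i hi => ?_)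
    fun i hi j h2 h3 => ?_).ge (Finset.mem_univ i))).2 <;> rw [Finset.mem_filter_univ] at *
  · intro t
    refine hI i hi ?_
    rw [← h.simple_val, h.rootSubgroup_eq]
    exact x_mem (S := {h.R.simple i}) _ rfl t
  · rcases h3 with h3 | h3
    · exact ChevSys.bond_mem h1 h3 h2 hi
    · rcases hm with rfl | hm
      · exact ChevSys.bond_mem h1 h3 h2 hi
      · exact ChevSys.long_mem h1 (h.strongComm F) h3 h2 hm.1 hm.2 hi

end Cfsg.Lib.Chev
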