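import Cfsg.Agent.Lib.Chev.SpinOmega
import Cfsg.Agent.Lib.Chev.Perfect

/-!
The Chevalley group of type B2 and the orthogonal group in dimension five.
-/

namespace Cfsg.Lib.Chev

open Matrix RootSys PreSys QuadraticMap Cfsg.Lib.Orth Module Cfsg.Lie

variable {F V : Type*} [Field F] [AddCommGroup V] [Module F V] {Q : QuadraticForm F V}

theorem eich_red {e f v : V} (h : IsHyp Q e f) (hv : Q v = 0) (hb : polar Q e v ≠ 0) :
    (eich Q e ((polar Q e v)⁻¹ • hproj Q e f v)).1 v = polar Q e v • f := by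
  obtain ⟨a, b, w, hw, rfl⟩ := h.exists_decomp v
  have h1 : hproj Q e f (a • e + b • f + w) = w := by
    rw [hproj, h.polar_left_comb hw, h.polar_right_comb hw]; abel
  obtain ⟨h2, h3⟩ := mem_hperp.1 hw
  rw [h.Q_comb' hw] at hv
  rw [h.polar_left_comb hw] at hb
  rw [h1, h.polar_left_comb hw, eich_apply h.left (by rw [polar_smul_right', h2, mul_zero]),
    h.polar_left_comb hw, polar_smul_left', polar_add_right, polar_add_right, polar_smul_right',
    polar_smul_right', polar_comm _ w e, polar_comm _ w f, h2, h3, polar_self', Q_smul,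
    show Q w = -(a * b) by linear_combination hv]
  match_scalars <;> field_simp <;> ring

theorem exists_eich_hyp {W : Submodule F V} {K : Subgroup (O Q)}
    (hK : ∀ u ∈ W, ∀ z ∈ W, eich Q u z ∈ K) {e f w : V} (h : IsHyp Q e f) (he : e ∈ W) (hf : f ∈ W)
    (hw : w ∈ W) (h1 : Q w ≠ 0) (h2 : ∀ v, polar Q w v = 0) {e' f' : V} (h' : IsHyp Q e' f')
    (he' : e' ∈ W) (hf' : f' ∈ W) :
    ∃ k ∈ K, ∃ a : F, a ≠ 0 ∧ k.1 e' = a • e ∧ k.1 f' = a⁻¹ • f := by
  have k0 : ∀ {u z x}, u ∈ W → z ∈ W → x ∈ W → (eich Q u z).1 x ∈ W := fun {u z x} hu hz hx => by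
    by_cases h : Q u = 0 ∧ polar Q u z = 0
    · rw [eich_apply h.1 h.2]
      exact sub_mem (sub_mem (add_mem hx (W.smul_mem _ hu)) (W.smul_mem _ hz)) (W.smul_mem _ hu)
    · rwa [eich_of_not h]
  have k1 : ∀ {e f x}, e ∈ W → f ∈ W → x ∈ W → hproj Q e f x ∈ W := fun he hf hx =>
    sub_mem (sub_mem hx (W.smul_mem _ he)) (W.smul_mem _ hf)
  wlog h3 : polar Q f e' ≠ 0 generalizing e' f'
  · obtain ⟨z, hz, h4⟩ : ∃ z ∈ W, polar Q f ((eich Q e z).1 e') ≠ 0 := by
      have h4 : ∀ z ∈ hperp Q e f, polar Q f ((eich Q e z).1 e') =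
          polar Q z e' - Q z * polar Q e e' := fun z hz => by
        simp [eich_apply h.left (mem_hperp.1 hz).1, not_not.1 h3, (mem_hperp.1 hz).2, h.polar_eq']
      by_cases h5 : polar Q e e' = 0
      · refine ⟨_, k1 he hf hf', ?_⟩
        rw [h4 _ (h.hproj_mem f')]
        simp [hproj, h5, not_not.1 h3, h'.polar_eq']
      · refine ⟨w, hw, ?_⟩
        rw [h4 w (mem_hperp.2 ⟨(polar_comm ..).trans (h2 e), (polar_comm ..).trans (h2 f)⟩)]
        simp [h2, h1, h5]
    obtain ⟨k, hk, e⟩ := this (h'.map _) (k0 he hz he') (k0 he hz hf') h4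
    exact ⟨_, K.mul_mem hk (hK _ he _ hz), e⟩
  have h4 := eich_red h.symm h'.left h3
  have h5 := W.smul_mem (polar Q f e')⁻¹ (k1 hf he he')
  generalize (polar Q f e')⁻¹ • hproj Q f e e' = z at h4 h5
  have h6 := h'.map (eich Q f z)
  have h7 : polar Q e ((eich Q f z).1 f') = (polar Q f e')⁻¹ := eq_inv_of_mul_eq_one_right (by
    rw [← polar_smul_left', ← h4, h6.polar_eq])
  have h8 := eich_red h h6.right (h7 ▸ inv_ne_zero h3)
  refine ⟨_, K.mul_mem (hK _ he _ (W.smul_mem _ (k1 he hf (k0 hf h5 hf')))) (hK _ hf _ h5), _, h3,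
    ?_, h7 ▸ h8⟩
  rw [O.mul_apply, h4, map_smul, eich_apply_self h.left (by
    rw [polar_smul_right', (mem_hperp.1 (h.hproj_mem _)).1, mul_zero])]

theorem HypBasis.commutator_le_five (B : HypBasis 5 Q) (h2 : (2 : F) = 0) :
    commutator (O Q) ≤ eichGroup Q := by
  have h0 : ∀ v, polar Q (B.b 2) v = 0 := fun v => by
    rw [← B.b.sum_repr v, ← polarBilin_apply_apply, map_sum]
    refine Finset.sum_eq_zero fun i _ => ?_
    rw [map_smul, polarBilin_apply_apply]
    by_cases e : i = 2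
    · rw [e, polar_self', h2, zero_mul, smul_zero]
    · rw [B.polar_b 2 i e, smul_zero]
  have h1 : Q (B.b 2) = 1 := B.Q_b 2
  have h3 : ∀ g : O Q, ∃ k ∈ eichGroup Q, ∀ i, ∃ c : F, (k * g).1 (B.b i) = c • B.b i := fun g => by
    have h4 := B.isHyp (a := 0) (by decide)
    have h5 := B.isHyp (a := 1) (by decide)
    obtain ⟨k, hk, a, ha, h6, h7⟩ := exists_eich_hyp (W := ⊤) (fun u _ z _ => eich_mem_eichGroup u z)
      h4 trivial trivial trivial (h1 ▸ one_ne_zero) h0 (h4.map g) trivial trivial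
    have h8 : ∀ i : Fin 5, i ≠ 0 → i ≠ 4 → B.b i ∈ hperp Q (B.b 0) (B.b 4) := fun i h h' =>
      mem_hperp.2 ⟨B.polar_b 0 i h', B.polar_b 4 i h⟩
    have h9 : ∀ v ∈ hperp Q (B.b 0) (B.b 4), (k * g).1 v ∈ hperp Q (B.b 0) (B.b 4) := fun v hv => by
      have e1 := O.map_polar (k * g) (B.b 0) v
      have e2 := O.map_polar (k * g) (B.b (Fin.rev 0)) v
      rw [O.mul_apply k g (B.b _)] at e1 e2
      rw [h6, polar_smul_left', (mem_hperp.1 hv).1] at e1
      rw [h7, polar_smul_left', show polar Q (B.b (Fin.rev 0)) v = 0 from (mem_hperp.1 hv).2] at e2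
      exact mem_hperp.2 ⟨(mul_eq_zero.1 e1).resolve_left ha,
        (mul_eq_zero.1 e2).resolve_left (inv_ne_zero ha)⟩
    obtain ⟨k', hk', a', -, h10, h11⟩ := exists_eich_hyp
      (K := eichGroup Q ⊓ fixer Q (Submodule.span F {B.b 0, B.b 4})) (fun u hu z hz =>
        ⟨eich_mem_eichGroup u z, genIn_perp_le_fixer _ (eich_mem_genIn hu hz)⟩) h5
      (h8 1 (by decide) (by decide)) (h8 3 (by decide) (by decide)) (h8 2 (by decide) (by decide))
      (h1 ▸ one_ne_zero) h0 (h5.map (k * g)) (h9 _ (h8 1 (by decide) (by decide)))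
      (h9 _ (h8 3 (by decide) (by decide)))
    have h12 := mem_fixer_span.1 hk'.2
    refine ⟨_, mul_mem hk'.1 hk, fun i => ?_⟩
    rw [mul_assoc]
    fin_cases i
    · exact ⟨a, (congrArg k'.1 h6).trans (by rw [map_smul, h12 _ (by simp)]; rfl)⟩
    · exact ⟨_, h10⟩
    · refine ⟨1, ?_⟩
      generalize k' * (k * g) = g
      refine (sub_eq_zero.1 (B.eq_zero ?_ fun a _ => ?_)).trans (one_smul _ _).symm
      · change Q (g.1 (B.b 2) - B.b 2) = 0
        rw [Q_sub, O.map_Q, h1, polar_comm, h0]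
        linear_combination h2
      · change polar Q _ (g.1 (B.b 2) - B.b 2) = 0
        rw [polar_sub_right, O.polar_right, polar_comm, h0, polar_comm, h0, sub_zero]
    · exact ⟨_, h11⟩
    · exact ⟨a⁻¹, (congrArg k'.1 h7).trans (by
        rw [map_smul, show B.b (Fin.rev 0) = B.b 4 from rfl, h12 _ (by simp)]; rfl)⟩
  rw [← Subgroup.Normal.quotient_commutative_iff_commutator_le]
  refine ⟨⟨fun x y => ?_⟩⟩
  obtain ⟨g, rfl⟩ := QuotientGroup.mk'_surjective _ x
  obtain ⟨g', rfl⟩ := QuotientGroup.mk'_surjective _ y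
  obtain ⟨k, hk, h⟩ := h3 g
  obtain ⟨k', hk', h'⟩ := h3 g'
  have h4 : ∀ {k}, k ∈ eichGroup Q → ∀ g, QuotientGroup.mk' (eichGroup Q) g =
      QuotientGroup.mk' _ (k * g) := fun {k} hk g => by
    rw [map_mul, QuotientGroup.mk'_apply _ k, (QuotientGroup.eq_one_iff _).2 hk, one_mul]
  rw [h4 hk, h4 hk' g', ← map_mul, ← map_mul]
  refine congrArg _ (Subtype.ext (B.b.ext' fun i => ?_))
  obtain ⟨c, hc⟩ := h i
  obtain ⟨c', hc'⟩ := h' i
  rw [O.mul_apply, O.mul_apply (k' * g'), hc, hc', map_smul, map_smul, hc, hc', smul_comm]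

/-- Data of the spin representation of type B2. -/
def spB2 (r : Fin chevB2.nroots) : Fin 5 × Fin 5 × ℤ :=
  [(3, 4, 1), (4, 2, 1), (3, 2, 1), (1, 4, 1), (0, 3, 1), (1, 2, -1), (0, 2, -1), (0, 1, 1)].getD r 0

/-- The matrices of the spin representation of type B2. -/
def eB2 (r : Fin chevB2.nroots) : Matrix (Fin (5 / 2) → Bool) (Fin (5 / 2) → Bool) ℤ :=
  (spB2 r).2.2 • ((carJW 5).γ (spB2 r).1 * (carJW 5).γ (spB2 r).2.1)

theorem eB2_br : ∀ r s k, checkedB2.R.α k = checkedB2.R.α r + checkedB2.R.α s →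
    eB2 r * eB2 s - eB2 s * eB2 r = chevB2.chainM r s 1 • eB2 k := by decide +kernel

theorem eB2_wt : ∀ (r : _ × _) (x : _ × _), eB2 r.1 x.1 x.2 = 0 ∨
    (eB2 r.2 * eB2 (checkedB2.R.neg r.2) - eB2 (checkedB2.R.neg r.2) * eB2 r.2) x.1 x.1 =
      (eB2 r.2 * eB2 (checkedB2.R.neg r.2) - eB2 (checkedB2.R.neg r.2) * eB2 r.2) x.2 x.2 +
        checkedB2.R.pair r.2 r.1 := by decide +kernel

/-- The spin representation of type B2. -/
def repB2 : MinRep checkedB2.R (Fin (5 / 2) → Bool) where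
  e := eB2
  μ x r := (eB2 r * eB2 (checkedB2.R.neg r) - eB2 (checkedB2.R.neg r) * eB2 r) x x
  noG2 := by unfold NoG2; decide +kernel
  sq := by decide +kernel
  ne := by decide +kernel
  wt r x y h s := (eB2_wt (r, s) (x, y)).resolve_left h
  cartan := by decide +kernel
  br r s h := (show ∀ r s, s ≠ checkedB2.R.neg r → eB2 r * eB2 s = eB2 s * eB2 r ∨ ∃ k,
    checkedB2.R.α k = checkedB2.R.α r + checkedB2.R.α s by decide +kernel) r s h |>.imp_right
      fun ⟨k, e⟩ => ⟨k, _, e, eB2_br r s k e⟩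

theorem isTab_B2 : repB2.IsTab checkedB2.T where
  br := eB2_br
  tri := show ∀ r s k, s ≠ checkedB2.R.neg r → checkedB2.R.α k = 2 • checkedB2.R.α r +
    checkedB2.R.α s → eB2 r * eB2 s * eB2 r = -chevB2.chainM r s 2 • eB2 k by decide +kernel

theorem isSpin_B2 : repB2.IsSpin (carJW 5) where
  left r := ⟨_, _, _, by revert r; decide +kernel, by revert r; decide +kernel, rfl⟩
  right a c h1 h2 h3 := by
    obtain ⟨r, ε, -, e⟩ := (show ∀ a c : Fin 5, a ≠ a.rev → c ≠ a.rev → c ≠ a → ∃ r,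
      ∃ ε ∈ [1, -1], (carJW 5).γ a * (carJW 5).γ c = ε • eB2 r by decide +kernel) a c h1 h2 h3
    exact ⟨r, ε, e⟩

theorem nonempty_B2_equiv (hF : ∃ a : F, a ≠ 0 ∧ a ≠ 1) :
    Nonempty (chevB2.group F ≃* POmega F (quadFormOdd 2 F)) := by
  let X := repB2.real F
  obtain ⟨φ, hφ⟩ := X.faithful.exists_hom_of_adjoint (X.strongComm' isTab_B2)
    (checkedB2.noA1 (by simp)) X.grp_eq (checkedB2.gsys_strongComm F) (checkedB2.gsys_adjoint F)
  obtain ⟨e⟩ := X.nonempty_equiv_pcom isSpin_B2 (hypOdd F 2)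
    (X.commutator_eq_top (checkedB2.perfectCond (by simp) fun _ => hF))
    ((em _).elim (hypOdd F 2).commutator_le_five fun h =>
      (hypOdd F 2).commutator_le F (nd_qOdd h 2) (by omega))
  exact ⟨((QuotientGroup.quotientKerEquivOfSurjective φ
    (hφ.surjective (checkedB2.gsys_grp F))).symm.trans (QuotientGroup.quotientMulEquivOfEq
      ((checkedB2.gsys_faithful F).ker_eq_center (checkedB2.gsys_adjoint F) hφ X.grp_eq))).trans
        (e.trans (pomegaEquiv (qOdd 2 F)).symm)⟩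

end Cfsg.Lib.Chev
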